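import Mathlib
import Cfsg.Agent.Lib.ChevOrth.Hyp

/-!
Two generation of the group generated by Eichler transformations of a quadratic space having three mutually
orthogonal hyperbolic planes: the basic calculus.
-/

set_option autoImplicit false
set_option linter.unusedSectionVars false
set_option linter.unusedVariables false
set_option linter.unusedSimpArgs false

namespace Cfsg.Agent.Lib.POmegaTwo.Core

open Module QuadraticMap Cfsg.Agent.Lib.Witt.Quadratic Cfsg.Agent.Lib.Orth.Refl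
open Cfsg.Agent.Lib.OrthRefl.Eichler Cfsg.Agent.Lib.Classical.QuadEichler Cfsg.Agent.Lib.ChevOrth.Hyp

variable {F V : Type*} [Field F] [AddCommGroup V] [Module F V] {Q : QuadraticForm F V}

/-- All Eichler transformations of centre `x` and vector `b` belong to `G`. -/
def Mm (Q : QuadraticForm F V) (G : Subgroup (V ≃ₗ[F] V)) (x b : V) : Prop := ∀ g, EAt Q x b g → g ∈ G

/-- All Eichler transformations of centre `x` and vector on the line of `y` belong to `G`. -/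
def RR (Q : QuadraticForm F V) (G : Subgroup (V ≃ₗ[F] V)) (x y : V) : Prop := ∀ c : F, Mm Q G x (c • y)

variable {G : Subgroup (V ≃ₗ[F] V)} {x y b b' x' y' : V}

theorem Mm.add (h : Mm Q G x b) (h' : Mm Q G x b') (hb : polar Q x b = 0) (hb' : polar Q x b' = 0) :
    Mm Q G x (b + b') := by
  intro g hg
  obtain ⟨g₁, h₁⟩ := exists_eAt hg.Qa hb
  obtain ⟨g₂, h₂⟩ := exists_eAt hg.Qa hb'
  rw [hg.unique (h₁.mul h₂)]
  exact G.mul_mem (h _ h₁) (h' _ h₂)

theorem Mm.neg (h : Mm Q G x b) : Mm Q G x (-b) := by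
  intro g hg
  have h1 := hg.inv
  rw [neg_neg] at h1
  have := h _ h1
  simpa using G.inv_mem this

theorem Mm.self (c : F) : Mm Q G x (c • x) := by
  intro g hg
  rw [hg.eq_one_of_smul]
  exact G.one_mem

theorem Mm.zero : Mm Q G x 0 := by
  intro g hg
  rw [hg.eq_one]
  exact G.one_mem

theorem Mm.of_center_smul {α : F} (hα : α ≠ 0) (H : Mm Q G (α • x) b) : Mm Q G x (α • b) :=
  fun g hg => H g (hg.of_smul hα)

theorem Mm.center_smul {α : F} (hα : α ≠ 0) (H : Mm Q G x (α • b)) : Mm Q G (α • x) b :=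
  fun g hg => H g (hg.smul_center hα)

theorem Mm.conj (hG : G ≤ isoGroup Q) {h : V ≃ₗ[F] V} (hh : h ∈ G) (H : Mm Q G x b) : Mm Q G (h x) (h b) := by
  intro g hg
  have h1 := hg.conj (t := h⁻¹) (isoGroup Q |>.inv_mem (hG hh))
  have e1 : h⁻¹ (h x) = x := by
    show (h⁻¹ * h) x = x
    rw [inv_mul_cancel]; rfl
  have e2 : h⁻¹ (h b) = b := by
    show (h⁻¹ * h) b = b
    rw [inv_mul_cancel]; rfl
  rw [e1, e2] at h1
  have h2 := H _ h1
  have h3 : g = h * (h⁻¹ * g * h⁻¹⁻¹) * h⁻¹ := by group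
  rw [h3]
  exact G.mul_mem (G.mul_mem hh h2) (G.inv_mem hh)

theorem Mm.get (H : Mm Q G x b) (hx : Q x = 0) (hb : polar Q x b = 0) : ∃ g ∈ G, EAt Q x b g := by
  obtain ⟨g, hg⟩ := exists_eAt hx hb
  exact ⟨g, H g hg, hg⟩

theorem RR.congr_right {c : F} (hc : c ≠ 0) (H : RR Q G x y) : RR Q G x (c • y) := by
  intro d
  rw [smul_smul]
  exact H _

theorem RR.mm (H : RR Q G x y) : Mm Q G x y := by
  have := H 1
  rwa [one_smul] at this

theorem RR.step (hG : G ≤ isoGroup Q) {h : V ≃ₗ[F] V} (hh : h ∈ G) {α β : F} (hα : α ≠ 0) (hβ : β ≠ 0)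
    (hx : h x = α • x') (hy : h y = β • y') (H : RR Q G x y) : RR Q G x' y' := by
  intro c
  have h1 := (H (α⁻¹ * c * β⁻¹)).conj hG hh
  rw [map_smul, hx, hy, smul_smul] at h1
  have h2 := h1.of_center_smul hα
  rw [smul_smul] at h2
  have e : α * (α⁻¹ * c * β⁻¹ * β) = c := by field_simp
  rwa [e] at h2

theorem RR.step_back (hG : G ≤ isoGroup Q) {h : V ≃ₗ[F] V} (hh : h ∈ G) {α β : F} (hα : α ≠ 0) (hβ : β ≠ 0)
    (hx : h x = α • x') (hy : h y = β • y') (H : RR Q G x' y') : RR Q G x y := by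
  have e1 : h⁻¹ x' = α⁻¹ • x := by
    apply h.injective
    rw [map_smul, hx, smul_smul, inv_mul_cancel₀ hα, one_smul]
    show (h * h⁻¹) x' = x'
    rw [mul_inv_cancel]; rfl
  have e2 : h⁻¹ y' = β⁻¹ • y := by
    apply h.injective
    rw [map_smul, hy, smul_smul, inv_mul_cancel₀ hβ, one_smul]
    show (h * h⁻¹) y' = y'
    rw [mul_inv_cancel]; rfl
  exact H.step hG (G.inv_mem hh) (inv_ne_zero hα) (inv_ne_zero hβ) e1 e2

/-- A singular vector and an orthogonal singular vector: swapping. -/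
theorem eAt_swap {c : F} {g : V ≃ₗ[F] V} (H : EAt Q y (c • x) g) (hx : Q x = 0) : EAt Q x ((-c) • y) g := by
  have h0 := H.ab
  rw [polar_smul_right, polar_comm, smul_eq_mul] at h0
  refine ⟨hx, ?_, fun z => ?_⟩
  · rw [polar_smul_right, smul_eq_mul, neg_mul, h0, neg_zero]
  · rw [H.apply', eichLin_apply]
    simp only [polar_smul_right, QuadraticMap.map_smul, map_neg, H.Qa, hx, smul_eq_mul, mul_zero, zero_mul, zero_smul,
      sub_zero]
    module

theorem RR.swap (hx : Q x = 0) (H : RR Q G x y) : RR Q G y x :=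
  fun c g hg => H _ _ (eAt_swap hg hx)

theorem eAt_comm' {a e y w : V} {A B : V ≃ₗ[F] V} (HA : EAt Q e y A) (HB : EAt Q a w B)
    (hae : polar Q a e = 0) (hay : polar Q a y = 0) : EAt Q a (A w - w) (A * B * A⁻¹ * B⁻¹) := by
  have h1 := HB.conj HA.mem_iso
  rw [HA.fix hae hay] at h1
  have h2 := h1.mul HB.inv
  rw [← sub_eq_add_neg] at h2
  exact h2

theorem RR.comp {κ : F} (hκ : κ ≠ 0) (hQx : Q x = 0) (hxy : polar Q x y = 0) (H : RR Q G x y) (H' : RR Q G x' y')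
    (hQx' : Q x' = 0) (h1 : polar Q x' x = 0) (h2 : polar Q x' y = 0) (h3 : polar Q y' x = 0) (h4 : polar Q y' y = κ)
    (hx'y' : polar Q x' y' = 0) : RR Q G x' x := by
  intro c g hg
  obtain ⟨A, hA⟩ := exists_eAt hQx hxy
  have hAG : A ∈ G := H.mm A hA
  obtain ⟨B, hB⟩ := exists_eAt hQx' (b := (c * κ⁻¹) • y') (by rw [polar_smul_right, hx'y', smul_zero])
  have hBG : B ∈ G := H' _ B hB
  have h5 := eAt_comm' hA hB h1 h2
  have e : A ((c * κ⁻¹) • y') - (c * κ⁻¹) • y' = c • x := by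
    rw [hA.apply', polar_smul_left, polar_smul_left, h3, h4]
    simp only [smul_eq_mul, mul_zero, zero_smul, sub_zero]
    rw [add_sub_cancel_left, mul_assoc, inv_mul_cancel₀ hκ, mul_one]
  rw [e] at h5
  rw [hg.unique h5]
  exact G.mul_mem (G.mul_mem (G.mul_mem hAG hBG) (G.inv_mem hAG)) (G.inv_mem hBG)

theorem eAt_split {a b y : V} {g g₁ g₂ g₃ : V ≃ₗ[F] V} (ha : Q a = 0) (hb : Q b = 0) (hab : polar Q a b = 0)
    (hay : polar Q a y = 0) (hby : polar Q b y = 0) (H : EAt Q (a + b) y g) (H₁ : EAt Q a y g₁) (H₂ : EAt Q b y g₂)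
    (H₃ : EAt Q a (Q y • b) g₃) : g = g₁ * g₂ * g₃ := by
  ext1 z
  show g z = g₁ (g₂ (g₃ z))
  have haa := polar_self_of_singular ha
  have hbb := polar_self_of_singular hb
  have hba : polar Q b a = 0 := by rw [polar_comm]; exact hab
  have hya : polar Q y a = 0 := by rw [polar_comm]; exact hay
  have hyb : polar Q y b = 0 := by rw [polar_comm]; exact hby
  have hyy : polar Q y y = 2 * Q y := by rw [polar_self_eq]
  have e3 : g₃ z = z + (Q y * polar Q z b) • a - (polar Q z a * Q y) • b := by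
    rw [H₃.apply', polar_smul_right, QuadraticMap.map_smul, hb]
    simp only [smul_eq_mul, smul_zero, zero_mul, zero_smul, sub_zero]
    module
  have p1 : polar Q (g₃ z) y = polar Q z y := by
    rw [e3]
    simp only [polar_add_left, polar_sub_left, polar_smul_left, hay, hby, smul_eq_mul, mul_zero, add_zero, sub_zero]
  have p2 : polar Q (g₃ z) b = polar Q z b := by
    rw [e3]
    simp only [polar_add_left, polar_sub_left, polar_smul_left, hab, hbb, smul_eq_mul, mul_zero, add_zero, sub_zero]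
  have p3 : polar Q (g₃ z) a = polar Q z a := by
    rw [e3]
    simp only [polar_add_left, polar_sub_left, polar_smul_left, haa, hba, smul_eq_mul, mul_zero, add_zero, sub_zero]
  have e2 : g₂ (g₃ z) = g₃ z + polar Q z y • b - polar Q z b • y - (Q y * polar Q z b) • b := by
    rw [H₂.apply', p1, p2]
  have p4 : polar Q (g₂ (g₃ z)) y = polar Q z y - polar Q z b * (2 * Q y) := by
    rw [e2]
    simp only [polar_add_left, polar_sub_left, polar_smul_left, p1, hby, hyy, smul_eq_mul, mul_zero, add_zero, sub_zero]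
  have p5 : polar Q (g₂ (g₃ z)) a = polar Q z a := by
    rw [e2]
    simp only [polar_add_left, polar_sub_left, polar_smul_left, p3, hba, hya, smul_eq_mul, mul_zero, add_zero, sub_zero]
  rw [H₁.apply', p4, p5, e2, e3, H.apply', polar_add_right]
  module

theorem RR.spread (hG : G ≤ isoGroup Q) {e₀ x₁ z : V} (he : Q e₀ = 0) (hx : Q x₁ = 0) (hz : Q z = 0)
    (h1 : polar Q e₀ x₁ = 0) (h2 : polar Q e₀ z = 0) (h3 : polar Q x₁ z = 1) (hy0 : polar Q y e₀ = 0)
    (hyx : polar Q y x₁ = 0) (hyz : polar Q y z = 0) (Hx : RR Q G x₁ y) (Hz : RR Q G e₀ z) (He : RR Q G e₀ x₁) :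
    RR Q G e₀ y := by
  intro c g hg
  obtain ⟨A, hA⟩ := exists_eAt he h2
  have hAG : A ∈ G := Hz.mm A hA
  have hM := (Hx c).conj hG hAG
  have h4 : polar Q x₁ e₀ = 0 := by rw [polar_comm]; exact h1
  have e1 : A x₁ = e₀ + x₁ := by
    rw [hA.apply', h3, h4, hz]
    simp only [one_smul, zero_smul, zero_mul, sub_zero]
    abel
  have e2 : A (c • y) = c • y := hA.fix (by rw [polar_smul_left, hy0, smul_zero]) (by
    rw [polar_smul_left, hyz, smul_zero])
  rw [e1, e2] at hM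
  have h5 : polar Q x₁ (c • y) = 0 := by
    rw [polar_smul_right, polar_comm, hyx, smul_zero]
  obtain ⟨g₂, hg₂⟩ := exists_eAt hx h5
  have hg₂G := Hx c g₂ hg₂
  have h6 : Q (e₀ + x₁) = 0 := by
    rw [Q_add, he, hx, h1]
    simp
  have h7 : polar Q (e₀ + x₁) (c • y) = 0 := by
    rw [polar_add_left, h5, hg.ab, add_zero]
  obtain ⟨g₃, hg₃⟩ := exists_eAt h6 h7
  have hg₃G := hM g₃ hg₃
  obtain ⟨g₄, hg₄⟩ := exists_eAt (Q := Q) (a := e₀) (b := Q (c • y) • x₁) he (by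
    rw [polar_smul_right, h1, smul_zero])
  have hg₄G := He _ g₄ hg₄
  have h8 := eAt_split he hx h1 hg.ab h5 hg₃ hg hg₂ hg₄
  have h9 : g = g₃ * g₄⁻¹ * g₂⁻¹ := by
    rw [h8]; group
  rw [h9]
  exact G.mul_mem (G.mul_mem hg₃G (G.inv_mem hg₄G)) (G.inv_mem hg₂G)

/-- A lift of a transposition of two hyperbolic pairs. -/
theorem exists_weyl {e f e' f' : V} (H : HP Q e f e' f') :
    ∃ n ∈ eGroup Q, n e = -e' ∧ n e' = e ∧ n f = -f' ∧ n f' = f ∧
      ∀ x, polar Q x e = 0 → polar Q x f = 0 → polar Q x e' = 0 → polar Q x f' = 0 → n x = x := by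
  obtain ⟨he, hf, he', hf', p1, p2, p3, p4, p5, p6⟩ := H
  have q1 : polar Q f e = 1 := by rw [polar_comm]; exact p1
  have q2 : polar Q f' e' = 1 := by rw [polar_comm]; exact p2
  have q3 : polar Q e' e = 0 := by rw [polar_comm]; exact p3
  have q4 : polar Q f' e = 0 := by rw [polar_comm]; exact p4
  have q5 : polar Q e' f = 0 := by rw [polar_comm]; exact p5
  have q6 : polar Q f' f = 0 := by rw [polar_comm]; exact p6
  have s1 := polar_self_of_singular he
  have s2 := polar_self_of_singular hf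
  have s3 := polar_self_of_singular he'
  have s4 := polar_self_of_singular hf'
  obtain ⟨g₁, h₁⟩ := exists_eAt (Q := Q) (a := e) (b := f') he p4
  obtain ⟨g₂, h₂⟩ := exists_eAt (Q := Q) (a := e') (b := -f) he' (by rw [polar_neg_right, q5, neg_zero])
  have a1 : ∀ z, g₁ z = z + polar Q z f' • e - polar Q z e • f' := by
    intro z
    rw [h₁.apply', hf']
    simp
  have a2 : ∀ z, g₂ z = z - polar Q z f • e' + polar Q z e' • f := by
    intro z
    rw [h₂.apply', polar_neg_right, QuadraticMap.map_neg, hf]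
    simp only [zero_mul, zero_smul, sub_zero, neg_smul, smul_neg]
    module
  have t1 : ∀ z, (g₁ * g₂ * g₁) z = g₁ (g₂ (g₁ z)) := fun _ => rfl
  refine ⟨g₁ * g₂ * g₁, Subgroup.mul_mem _ (Subgroup.mul_mem _ h₁.mem_eGroup h₂.mem_eGroup) h₁.mem_eGroup,
    ?_, ?_, ?_, ?_, ?_⟩
  · rw [t1]
    simp only [a1, a2, map_add, map_sub, map_smul, polar_add_left, polar_sub_left, polar_smul_left, p1, p2, p3, p4, p5, p6,
      q1, q2, q3, q4, q5, q6, s1, s2, s3, s4, smul_eq_mul]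
    module
  · rw [t1]
    simp only [a1, a2, map_add, map_sub, map_smul, polar_add_left, polar_sub_left, polar_smul_left, p1, p2, p3, p4, p5, p6,
      q1, q2, q3, q4, q5, q6, s1, s2, s3, s4, smul_eq_mul]
    module
  · rw [t1]
    simp only [a1, a2, map_add, map_sub, map_smul, polar_add_left, polar_sub_left, polar_smul_left, p1, p2, p3, p4, p5, p6,
      q1, q2, q3, q4, q5, q6, s1, s2, s3, s4, smul_eq_mul]
    module
  · rw [t1]
    simp only [a1, a2, map_add, map_sub, map_smul, polar_add_left, polar_sub_left, polar_smul_left, p1, p2, p3, p4, p5, p6,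
      q1, q2, q3, q4, q5, q6, s1, s2, s3, s4, smul_eq_mul]
    module
  · intro x hx1 hx2 hx3 hx4
    rw [t1, h₁.fix hx1 hx4, h₂.fix hx3 (by rw [polar_neg_right, hx2, neg_zero]), h₁.fix hx1 hx4]

/-- A lift of the reflection in an anisotropic vector, exchanging the members of a hyperbolic pair. -/
theorem exists_weylW {e f y₀ : V} (he : Q e = 0) (hf : Q f = 0) (hef : polar Q e f = 1) (hye : polar Q y₀ e = 0)
    (hyf : polar Q y₀ f = 0) (hq : Q y₀ ≠ 0) :
    ∃ n ∈ eGroup Q, n e = (-(Q y₀)⁻¹) • f ∧ n f = (-Q y₀) • e ∧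
      ∀ x, polar Q x e = 0 → polar Q x f = 0 → n x = x - (polar Q x y₀ * (Q y₀)⁻¹) • y₀ := by
  have q1 : polar Q f e = 1 := by rw [polar_comm]; exact hef
  have q2 : polar Q e y₀ = 0 := by rw [polar_comm]; exact hye
  have q3 : polar Q f y₀ = 0 := by rw [polar_comm]; exact hyf
  have s1 := polar_self_of_singular he
  have s2 := polar_self_of_singular hf
  have s3 : polar Q y₀ y₀ = 2 * Q y₀ := by rw [polar_self_eq]
  set q := Q y₀ with hqdef
  obtain ⟨g₁, h₁⟩ := exists_eAt (Q := Q) (a := e) (b := y₀) he q2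
  obtain ⟨g₂, h₂⟩ := exists_eAt (Q := Q) (a := f) (b := q⁻¹ • y₀) hf (by rw [polar_smul_right, q3, smul_zero])
  have a1 : ∀ z, g₁ z = z + polar Q z y₀ • e - polar Q z e • y₀ - (q * polar Q z e) • e := fun z => h₁.apply' z
  have a2 : ∀ z, g₂ z = z + (q⁻¹ * polar Q z y₀) • f - (q⁻¹ * polar Q z f) • y₀ - (q⁻¹ * polar Q z f) • f := by
    intro z
    rw [h₂.apply', polar_smul_right, QuadraticMap.map_smul, ← hqdef, smul_eq_mul, smul_eq_mul, smul_smul]
    have : q⁻¹ * q⁻¹ * q * polar Q z f = q⁻¹ * polar Q z f := by field_simp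
    rw [this, mul_comm (polar Q z f) q⁻¹]
  have t1 : ∀ z, (g₁ * g₂ * g₁) z = g₁ (g₂ (g₁ z)) := fun _ => rfl
  have hi : q⁻¹ * q = 1 := inv_mul_cancel₀ hq
  have b1 : g₁ e = e := by
    rw [a1]; simp [s1, q2]
  have b2 : g₁ y₀ = y₀ + (2 * q) • e := by
    rw [a1, s3, hye]; simp
  have b3 : g₁ f = f - y₀ - q • e := by
    rw [a1, q1, q3]; simp
  have c1 : g₂ e = e - q⁻¹ • y₀ - q⁻¹ • f := by
    rw [a2, hef, q2]; simp
  have c2 : g₂ y₀ = y₀ + (q⁻¹ * (2 * q)) • f := by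
    rw [a2, s3, hyf]; simp
  have c3 : g₂ f = f := by
    rw [a2, s2, q3]; simp
  refine ⟨g₁ * g₂ * g₁, Subgroup.mul_mem _ (Subgroup.mul_mem _ h₁.mem_eGroup h₂.mem_eGroup) h₁.mem_eGroup,
    ?_, ?_, ?_⟩
  · rw [t1, b1, c1]
    simp only [map_sub, map_smul, b1, b2, b3]
    linear_combination (norm := module) hi • (-e)
  · rw [t1, b3]
    simp only [map_add, map_sub, map_smul, b1, b2, b3, c1, c2, c3]
    linear_combination (norm := module) hi • (-f + (2 : F) • y₀ + (3 * q) • e)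
  · intro x hx1 hx2
    have d1 : g₁ x = x + polar Q x y₀ • e := by
      rw [a1, hx1]; simp
    have d2 : g₂ x = x + (q⁻¹ * polar Q x y₀) • f := by
      rw [a2, hx2]; simp
    rw [t1, d1]
    simp only [map_add, map_sub, map_smul, b1, b2, b3, c1, c2, c3, d1, d2]
    linear_combination (norm := module) hi • ((-(polar Q x y₀ * 2)) • e)


/-- `g` acts as a diagonal on two hyperbolic pairs and trivially on their orthogonal complement. -/
structure IsTau (Q : QuadraticForm F V) (e₀ f₀ e₁ f₁ : V) (c : F) (g : V ≃ₗ[F] V) : Prop where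
  e0 : g e₀ = c • e₀
  e1 : g e₁ = c • e₁
  f0 : g f₀ = c⁻¹ • f₀
  f1 : g f₁ = c⁻¹ • f₁
  perp : ∀ x, polar Q x e₀ = 0 → polar Q x f₀ = 0 → polar Q x e₁ = 0 → polar Q x f₁ = 0 → g x = x

section tau

variable {e₀ f₀ e₁ f₁ : V}

theorem IsTau.mul {c d : F} {g g' : V ≃ₗ[F] V} (h : IsTau Q e₀ f₀ e₁ f₁ c g) (h' : IsTau Q e₀ f₀ e₁ f₁ d g') :
    IsTau Q e₀ f₀ e₁ f₁ (c * d) (g * g') := by
  refine ⟨?_, ?_, ?_, ?_, fun x h1 h2 h3 h4 => ?_⟩
  · show g (g' e₀) = _
    rw [h'.e0, map_smul, h.e0, smul_smul, mul_comm]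
  · show g (g' e₁) = _
    rw [h'.e1, map_smul, h.e1, smul_smul, mul_comm]
  · show g (g' f₀) = _
    rw [h'.f0, map_smul, h.f0, smul_smul, mul_inv, mul_comm]
  · show g (g' f₁) = _
    rw [h'.f1, map_smul, h.f1, smul_smul, mul_inv, mul_comm]
  · show g (g' x) = _
    rw [h'.perp x h1 h2 h3 h4, h.perp x h1 h2 h3 h4]

theorem IsTau.one : IsTau Q e₀ f₀ e₁ f₁ (1 : F) (1 : V ≃ₗ[F] V) :=
  ⟨by simp, by simp, by simp, by simp, fun _ _ _ _ _ => rfl⟩

theorem IsTau.pow {c : F} {g : V ≃ₗ[F] V} (h : IsTau Q e₀ f₀ e₁ f₁ c g) (k : ℕ) :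
    IsTau Q e₀ f₀ e₁ f₁ (c ^ k) (g ^ k) := by
  induction k with
  | zero => simpa using IsTau.one
  | succ k ih =>
    rw [pow_succ, pow_succ]
    exact ih.mul h

theorem IsTau.eq_one {g : V ≃ₗ[F] V} (H : HP Q e₀ f₀ e₁ f₁) (h : IsTau Q e₀ f₀ e₁ f₁ (1 : F) g) : g = 1 := by
  obtain ⟨he, hf, he', hf', p1, p2, p3, p4, p5, p6⟩ := H
  have q1 : polar Q f₀ e₀ = 1 := by rw [polar_comm]; exact p1
  have q2 : polar Q f₁ e₁ = 1 := by rw [polar_comm]; exact p2
  have q3 : polar Q e₁ e₀ = 0 := by rw [polar_comm]; exact p3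
  have q4 : polar Q f₁ e₀ = 0 := by rw [polar_comm]; exact p4
  have q5 : polar Q e₁ f₀ = 0 := by rw [polar_comm]; exact p5
  have q6 : polar Q f₁ f₀ = 0 := by rw [polar_comm]; exact p6
  have s1 := polar_self_of_singular he
  have s2 := polar_self_of_singular hf
  have s3 := polar_self_of_singular he'
  have s4 := polar_self_of_singular hf'
  ext1 x
  set x' := x - polar Q x f₀ • e₀ - polar Q x e₀ • f₀ - polar Q x f₁ • e₁ - polar Q x e₁ • f₁ with hx'
  have h1 : g x' = x' := h.perp x' (by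
      rw [hx']
      simp only [polar_sub_left, polar_smul_left, p1, q1, q3, q4, s1, smul_eq_mul, mul_zero, mul_one, sub_zero, sub_self])
    (by
      rw [hx']
      simp only [polar_sub_left, polar_smul_left, p1, s2, q5, q6, smul_eq_mul, mul_zero, mul_one, sub_zero, sub_self])
    (by
      rw [hx']
      simp only [polar_sub_left, polar_smul_left, p3, p5, q2, s3, smul_eq_mul, mul_zero, mul_one, sub_zero, sub_self])
    (by
      rw [hx']
      simp only [polar_sub_left, polar_smul_left, p4, p6, p2, s4, smul_eq_mul, mul_zero, mul_one, sub_zero, sub_self])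
  have e1 : x = x' + polar Q x f₀ • e₀ + polar Q x e₀ • f₀ + polar Q x f₁ • e₁ + polar Q x e₁ • f₁ := by
    rw [hx']; abel
  show g x = x
  rw [e1]
  simp only [map_add, map_smul, h1, h.e0, h.e1, h.f0, h.f1, inv_one, one_smul]

/-- A diagonal element on two hyperbolic pairs. -/
theorem exists_tau (H : HP Q e₀ f₀ e₁ f₁) {c : F} (hc : c ≠ 0) : ∃ g ∈ eGroup Q, IsTau Q e₀ f₀ e₁ f₁ c g := by
  have H' : ∀ d : F, d ≠ 0 → HP Q e₀ f₀ (d⁻¹ • f₁) (d • e₁) := by
    intro d hd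
    refine ⟨H.Qe₁, H.Qf₁, ?_, ?_, H.e₁f₁, ?_, ?_, ?_, ?_, ?_⟩
    · rw [QuadraticMap.map_smul, H.Qf₂, smul_zero]
    · rw [QuadraticMap.map_smul, H.Qe₂, smul_zero]
    · rw [polar_smul_left, polar_smul_right, polar_comm, H.e₂f₂]
      simp [hd]
    · rw [polar_smul_right, H.e₁f₂, smul_zero]
    · rw [polar_smul_right, H.e₁e₂, smul_zero]
    · rw [polar_smul_right, H.f₁f₂, smul_zero]
    · rw [polar_smul_right, H.f₁e₂, smul_zero]
  obtain ⟨n, hn, a1, a2, a3, a4, a5⟩ := exists_weyl (H' c hc)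
  obtain ⟨m, hm, b1, b2, b3, b4, b5⟩ := exists_weyl (H' 1 one_ne_zero)
  simp only [inv_one, one_smul] at b1 b2 b3 b4 b5
  have i1 : m⁻¹ e₀ = f₁ := by
    rw [← b2]
    show (m⁻¹ * m) f₁ = f₁
    rw [inv_mul_cancel]; rfl
  have i2 : m⁻¹ f₁ = -e₀ := by
    rw [eq_neg_iff_add_eq_zero]
    have : m⁻¹ (m e₀) = e₀ := by
      show (m⁻¹ * m) e₀ = e₀
      rw [inv_mul_cancel]; rfl
    rw [b1, map_neg] at this
    rw [← this]
    simp
  have i3 : m⁻¹ f₀ = e₁ := by
    rw [← b4]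
    show (m⁻¹ * m) e₁ = e₁
    rw [inv_mul_cancel]; rfl
  have i4 : m⁻¹ e₁ = -f₀ := by
    rw [eq_neg_iff_add_eq_zero]
    have : m⁻¹ (m f₀) = f₀ := by
      show (m⁻¹ * m) f₀ = f₀
      rw [inv_mul_cancel]; rfl
    rw [b3, map_neg] at this
    rw [← this]
    simp
  have c1 : n f₁ = c • e₀ := by
    have : n (c⁻¹ • f₁) = e₀ := a2
    rw [map_smul] at this
    rw [← this, smul_smul, mul_inv_cancel₀ hc, one_smul]
  have c2 : n e₁ = c⁻¹ • f₀ := by
    have : n (c • e₁) = f₀ := a4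
    rw [map_smul] at this
    rw [← this, smul_smul, inv_mul_cancel₀ hc, one_smul]
  refine ⟨n * m⁻¹, Subgroup.mul_mem _ hn (Subgroup.inv_mem _ hm), ?_, ?_, ?_, ?_, fun x h1 h2 h3 h4 => ?_⟩
  · show n (m⁻¹ e₀) = _
    rw [i1, c1]
  · show n (m⁻¹ e₁) = _
    rw [i4, map_neg, a3, neg_neg]
  · show n (m⁻¹ f₀) = _
    rw [i3, c2]
  · show n (m⁻¹ f₁) = _
    rw [i2, map_neg, a1, neg_neg]
  · show n (m⁻¹ x) = _
    have : m⁻¹ x = x := by
      have h5 : m x = x := b5 x h1 h2 h4 h3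
      have h6 : m⁻¹ (m x) = x := by
        show (m⁻¹ * m) x = x
        rw [inv_mul_cancel]; rfl
      rwa [h5] at h6
    rw [this]
    exact a5 x h1 h2 (by rw [polar_smul_right, h4, smul_zero]) (by rw [polar_smul_right, h3, smul_zero])

end tau

/-- A family of mutually orthogonal hyperbolic pairs, indexed by `0, …, n`. -/
structure Fr (Q : QuadraticForm F V) (n : ℕ) (e f : ℕ → V) : Prop where
  Qe : ∀ i, i ≤ n → Q (e i) = 0
  Qf : ∀ i, i ≤ n → Q (f i) = 0
  ee : ∀ i j, i ≤ n → j ≤ n → polar Q (e i) (e j) = 0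
  ff : ∀ i j, i ≤ n → j ≤ n → polar Q (f i) (f j) = 0
  ef : ∀ i j, i ≤ n → j ≤ n → i ≠ j → polar Q (e i) (f j) = 0
  ef' : ∀ i, i ≤ n → polar Q (e i) (f i) = 1

section frame

variable {n : ℕ} {e f : ℕ → V}

theorem Fr.fe (S : Fr Q n e f) (i j : ℕ) (hi : i ≤ n) (hj : j ≤ n) (h : i ≠ j) : polar Q (f i) (e j) = 0 := by
  rw [polar_comm]; exact S.ef j i hj hi h.symm

theorem Fr.fe' (S : Fr Q n e f) (i : ℕ) (hi : i ≤ n) : polar Q (f i) (e i) = 1 := by
  rw [polar_comm]; exact S.ef' i hi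

theorem Fr.hp (S : Fr Q n e f) {i j : ℕ} (hi : i ≤ n) (hj : j ≤ n) (h : i ≠ j) : HP Q (e i) (f i) (e j) (f j) :=
  ⟨S.Qe i hi, S.Qf i hi, S.Qe j hj, S.Qf j hj, S.ef' i hi, S.ef' j hj, S.ee i j hi hj, S.ef i j hi hj h,
    S.fe i j hi hj h, S.ff i j hi hj⟩

/-- A cycle on the first `k + 1` pairs. -/
theorem exists_cycle (S : Fr Q n e f) : ∀ k, k ≤ n → ∃ p ∈ eGroup Q,
    (∀ i, i < k → (∃ c : F, c ≠ 0 ∧ p (e i) = c • e (i + 1)) ∧ (∃ c : F, c ≠ 0 ∧ p (f i) = c • f (i + 1))) ∧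
    (∃ c : F, c ≠ 0 ∧ p (e k) = c • e 0) ∧ (∃ c : F, c ≠ 0 ∧ p (f k) = c • f 0) ∧
    ∀ x, (∀ i, i ≤ k → polar Q x (e i) = 0 ∧ polar Q x (f i) = 0) → p x = x := by
  intro k
  induction k with
  | zero =>
    intro _
    exact ⟨1, Subgroup.one_mem _, fun i hi => absurd hi (by omega), ⟨1, one_ne_zero, by simp⟩, ⟨1, one_ne_zero, by simp⟩,
      fun _ _ => rfl⟩
  | succ k ih =>
    intro hk
    obtain ⟨p, hp, h1, h2, h3, h4⟩ := ih (by omega)
    have hk1 : k ≤ n := by omega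
    obtain ⟨m, hm, b1, b2, b3, b4, b5⟩ := exists_weyl (S.hp hk1 hk (by omega))
    have fixe : p (e (k + 1)) = e (k + 1) := h4 _ (fun i hi => ⟨S.ee _ _ hk (by omega), S.ef _ _ hk (by omega) (by omega)⟩)
    have fixf : p (f (k + 1)) = f (k + 1) := h4 _ (fun i hi => ⟨S.fe _ _ hk (by omega) (by omega), S.ff _ _ hk (by omega)⟩)
    refine ⟨p * m, Subgroup.mul_mem _ hp hm, fun i hi => ?_, ?_, ?_, fun x hx => ?_⟩
    · by_cases hik : i = k
      · subst hik
        constructor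
        · refine ⟨-1, by simp, ?_⟩
          show p (m (e i)) = _
          rw [b1, map_neg, fixe]
          simp
        · refine ⟨-1, by simp, ?_⟩
          show p (m (f i)) = _
          rw [b3, map_neg, fixf]
          simp
      · have hi' : i < k := by omega
        have hin : i ≤ n := by omega
        obtain ⟨c1, hc1, e1⟩ := (h1 i hi').1
        obtain ⟨c2, hc2, e2⟩ := (h1 i hi').2
        refine ⟨⟨c1, hc1, ?_⟩, ⟨c2, hc2, ?_⟩⟩
        · show p (m (e i)) = _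
          rw [b5 _ (S.ee _ _ hin hk1) (S.ef _ _ hin hk1 (by omega)) (S.ee _ _ hin hk) (S.ef _ _ hin hk (by omega)), e1]
        · show p (m (f i)) = _
          rw [b5 _ (S.fe _ _ hin hk1 (by omega)) (S.ff _ _ hin hk1) (S.fe _ _ hin hk (by omega)) (S.ff _ _ hin hk), e2]
    · obtain ⟨c, hc, e1⟩ := h2
      refine ⟨c, hc, ?_⟩
      show p (m (e (k + 1))) = _
      rw [b2, e1]
    · obtain ⟨c, hc, e1⟩ := h3
      refine ⟨c, hc, ?_⟩
      show p (m (f (k + 1))) = _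
      rw [b4, e1]
    · show p (m x) = _
      rw [b5 x (hx k (by omega)).1 (hx k (by omega)).2 (hx (k + 1) le_rfl).1 (hx (k + 1) le_rfl).2]
      exact h4 x (fun i hi => hx i (by omega))

/-- A cycle of length `2 (n + 1)` on the frame vectors. -/
theorem exists_w (S : Fr Q n e f) {y₀ : V} (hy₀ : ∀ i, i ≤ n → polar Q y₀ (e i) = 0 ∧ polar Q y₀ (f i) = 0)
    (hq : Q y₀ ≠ 0) : ∃ w ∈ eGroup Q,
    (∀ i, i < n → (∃ c : F, c ≠ 0 ∧ w (e i) = c • e (i + 1)) ∧ (∃ c : F, c ≠ 0 ∧ w (f i) = c • f (i + 1))) ∧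
    (∃ c : F, c ≠ 0 ∧ w (e n) = c • f 0) ∧ (∃ c : F, c ≠ 0 ∧ w (f n) = c • e 0) ∧
    ∀ x, (∀ i, i ≤ n → polar Q x (e i) = 0 ∧ polar Q x (f i) = 0) →
      w x = x - (polar Q x y₀ * (Q y₀)⁻¹) • y₀ := by
  obtain ⟨p, hp, h1, ⟨c₁, hc₁, h2⟩, ⟨c₂, hc₂, h3⟩, h4⟩ := exists_cycle S n le_rfl
  obtain ⟨m, hm, b1, b2, b3⟩ := exists_weylW (S.Qe n le_rfl) (S.Qf n le_rfl) (S.ef' n le_rfl) (hy₀ n le_rfl).1
    (hy₀ n le_rfl).2 hq
  have hq' : (Q y₀)⁻¹ ≠ 0 := inv_ne_zero hq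
  refine ⟨p * m, Subgroup.mul_mem _ hp hm, fun i hi => ?_, ?_, ?_, fun x hx => ?_⟩
  · have hin : i ≤ n := by omega
    obtain ⟨c1, hc1, e1⟩ := (h1 i hi).1
    obtain ⟨c2, hc2, e2⟩ := (h1 i hi).2
    refine ⟨⟨c1, hc1, ?_⟩, ⟨c2, hc2, ?_⟩⟩
    · show p (m (e i)) = _
      rw [b3 _ (S.ee _ _ hin le_rfl) (S.ef _ _ hin le_rfl (by omega)), polar_comm, (hy₀ i hin).1]
      simpa using e1
    · show p (m (f i)) = _
      rw [b3 _ (S.fe _ _ hin le_rfl (by omega)) (S.ff _ _ hin le_rfl), polar_comm, (hy₀ i hin).2]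
      simpa using e2
  · refine ⟨(-(Q y₀)⁻¹) * c₂, mul_ne_zero (neg_ne_zero.2 hq') hc₂, ?_⟩
    show p (m (e n)) = _
    rw [b1, map_smul, h3, smul_smul]
  · refine ⟨(-Q y₀) * c₁, mul_ne_zero (neg_ne_zero.2 hq) hc₁, ?_⟩
    show p (m (f n)) = _
    rw [b2, map_smul, h2, smul_smul]
  · show p (m x) = _
    rw [b3 x (hx n le_rfl).1 (hx n le_rfl).2]
    refine h4 _ (fun i hi => ?_)
    rw [polar_sub_left, polar_sub_left, polar_smul_left, polar_smul_left, (hx i hi).1, (hx i hi).2, (hy₀ i hi).1,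
      (hy₀ i hi).2]
    simp

end frame

end Cfsg.Agent.Lib.POmegaTwo.Core
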