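import Mathlib
import Cfsg.Agent.Lib.POmegaTwo.Core

/-!
Two generation of the group generated by Eichler transformations of a quadratic space having three mutually
orthogonal hyperbolic planes.
-/

set_option autoImplicit false
set_option linter.unusedSectionVars false
set_option linter.unusedVariables false
set_option linter.unusedSimpArgs false

namespace Cfsg.Agent.Lib.POmegaTwo.Main

open Module QuadraticMap Cfsg.Agent.Lib.Witt.Quadratic Cfsg.Agent.Lib.Orth.Refl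
open Cfsg.Agent.Lib.OrthRefl.Eichler Cfsg.Agent.Lib.Classical.QuadEichler Cfsg.Agent.Lib.ChevOrth.Hyp
open Cfsg.Agent.Lib.POmegaTwo.Core

variable {F V : Type*} [Field F] [AddCommGroup V] [Module F V] {Q : QuadraticForm F V}
variable {G : Subgroup (V ≃ₗ[F] V)} {n : ℕ} {e f : ℕ → V} {a : V ≃ₗ[F] V} {y₁ y₂ : V}

/-- The action of the first generator on the frame. -/
structure Act (Q : QuadraticForm F V) (n : ℕ) (e f : ℕ → V) (a : V ≃ₗ[F] V) (y₁ y₂ : V) : Prop where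
  e_step : ∀ i, i < n → ∃ c : F, c ≠ 0 ∧ a (e i) = c • e (i + 1)
  f_step : ∀ i, 1 ≤ i → i < n → ∃ c : F, c ≠ 0 ∧ a (f i) = c • f (i + 1)
  e_last : ∃ c : F, c ≠ 0 ∧ a (e n) = c • f 0
  f_last : ∃ c : F, c ≠ 0 ∧ a (f n) = c • e 0
  f_zero : ∃ α β : F, α ≠ 0 ∧ a (f 0) = α • f 1 - y₂ - β • e 1
  y_two : ∃ β : F, a y₂ = y₁ + β • e 1

/-- Vectors orthogonal to the frame. -/
def Perp (Q : QuadraticForm F V) (n : ℕ) (e f : ℕ → V) (y : V) : Prop :=
  ∀ i, i ≤ n → polar Q y (e i) = 0 ∧ polar Q y (f i) = 0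

section core1

variable (S : Fr Q n e f) (hn : 2 ≤ n) (hG : G ≤ isoGroup Q) (ha : a ∈ G) (A : Act Q n e f a y₁ y₂)
  (hy₁ : Perp Q n e f y₁) (hy₂ : Perp Q n e f y₂)

include S hn hG ha A

theorem step1 {u τ : V ≃ₗ[F] V} (hu : EAt Q (e 0) (f 1) u) (huG : u ∈ G) (hτ : τ ∈ G) {ζ : F} (hζ0 : ζ ≠ 0)
    (hζ : ∀ d : F, d ≠ 0 → ∃ k : ℕ, d = ζ ^ k) (Hτ : IsTau Q (e 0) (f 0) (e 1) (f 1) ζ τ) : RR Q G (e 1) (f 2) := by
  obtain ⟨s₀, hs₀, h0⟩ := A.e_step 0 (by omega)
  obtain ⟨s₁, hs₁, h1⟩ := A.f_step 1 le_rfl (by omega)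
  have hτf : τ (f 2) = f 2 := Hτ.perp _ (S.fe _ _ (by omega) (by omega) (by omega))
    (S.ff _ _ (by omega) (by omega)) (S.fe _ _ (by omega) (by omega) (by omega)) (S.ff _ _ (by omega) (by omega))
  have key : ∀ k : ℕ, ∃ g ∈ G, EAt Q (e 1) ((ζ ^ k * (s₀ * s₁)) • f 2) g := by
    intro k
    induction k with
    | zero =>
      have h2 := hu.conj (hG ha)
      rw [h0, h1] at h2
      have h3 := h2.smul_center hs₀
      refine ⟨_, G.mul_mem (G.mul_mem ha huG) (G.inv_mem ha), ?_⟩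
      rw [smul_smul] at h3
      simpa using h3
    | succ k ih =>
      obtain ⟨g, hg, h2⟩ := ih
      have h3 := h2.conj (hG hτ)
      rw [map_smul, Hτ.e1, hτf] at h3
      have h4 := h3.smul_center hζ0
      rw [smul_smul] at h4
      refine ⟨_, G.mul_mem (G.mul_mem hτ hg) (G.inv_mem hτ), ?_⟩
      rw [pow_succ, mul_comm (ζ ^ k) ζ]
      rwa [mul_assoc]
  intro c g hg
  by_cases hc : c = 0
  · subst hc
    rw [zero_smul] at hg
    rw [hg.eq_one]
    exact G.one_mem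
  obtain ⟨k, hk⟩ := hζ (c / (s₀ * s₁)) (div_ne_zero hc (mul_ne_zero hs₀ hs₁))
  obtain ⟨g', hg', h2⟩ := key k
  rw [← hk, div_mul_cancel₀ _ (mul_ne_zero hs₀ hs₁)] at h2
  rw [hg.unique h2]
  exact hg'

theorem chain (H : RR Q G (e 1) (f 2)) : ∀ i, i < n → RR Q G (e i) (f (i + 1)) := by
  have h1 : ∀ i, 1 ≤ i → i < n → RR Q G (e i) (f (i + 1)) := by
    intro i hi
    induction i, hi using Nat.le_induction with
    | base => intro _; exact H
    | succ i hi ih =>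
      intro hin
      obtain ⟨c, hc, h2⟩ := A.e_step i (by omega)
      obtain ⟨d, hd, h3⟩ := A.f_step (i + 1) (by omega) hin
      exact (ih (by omega)).step hG ha hc hd h2 h3
  intro i hi
  by_cases h0 : i = 0
  · subst h0
    obtain ⟨c, hc, h2⟩ := A.e_step 0 (by omega)
    obtain ⟨d, hd, h3⟩ := A.f_step 1 le_rfl (by omega)
    exact H.step_back hG ha hc hd h2 h3
  · exact h1 i (by omega) hi

theorem chain_far (H : ∀ i, i < n → RR Q G (e i) (f (i + 1))) (j : ℕ) :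
    ∀ k, j + 1 ≤ k → k ≤ n → RR Q G (e j) (f k) := by
  intro k hk
  induction k, hk using Nat.le_induction with
  | base => intro h; exact H j (by omega)
  | succ k hk ih =>
    intro hkn
    have h1 := (H k (by omega)).swap (S.Qe k (by omega))
    exact h1.comp (κ := 1) one_ne_zero (S.Qf _ hkn) (S.fe _ _ hkn (by omega) (by omega)) (ih (by omega))
      (S.Qe j (by omega)) (S.ef _ _ (by omega) hkn (by omega)) (S.ee _ _ (by omega) (by omega))
      (S.ff _ _ (by omega) hkn) (S.fe' _ (by omega)) (S.ef _ _ (by omega) (by omega) (by omega))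

theorem last_zero (H : ∀ i, i < n → RR Q G (e i) (f (i + 1))) : RR Q G (e n) (e 0) := by
  obtain ⟨m, rfl⟩ : ∃ m, n = m + 1 := ⟨n - 1, by omega⟩
  obtain ⟨c, hc, h2⟩ := A.e_step m (by omega)
  obtain ⟨d, hd, h3⟩ := A.f_last
  exact (H m (by omega)).step hG ha hc hd h2 h3

theorem f_zero_one (H : RR Q G (e n) (e 0)) : RR Q G (f 0) (e 1) := by
  obtain ⟨c, hc, h2⟩ := A.e_last
  obtain ⟨d, hd, h3⟩ := A.e_step 0 (by omega)
  exact H.step hG ha hc hd h2 h3

theorem e_zero (H : ∀ j k, j + 1 ≤ k → k ≤ n → RR Q G (e j) (f k)) (H' : RR Q G (e n) (e 0)) :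
    ∀ j, 1 ≤ j → j ≤ n → RR Q G (e j) (e 0) := by
  intro j hj hjn
  by_cases hjn' : j = n
  · subst hjn'; exact H'
  have h1 := H'.swap (S.Qe n le_rfl)
  exact h1.comp (κ := 1) one_ne_zero (S.Qe _ (by omega)) (S.ee _ _ (by omega) le_rfl) (H j n (by omega) le_rfl)
    (S.Qe j hjn) (S.ee _ _ hjn (by omega)) (S.ee _ _ hjn le_rfl) (S.fe _ _ le_rfl (by omega) (by omega))
    (S.fe' _ le_rfl) (S.ef _ _ hjn le_rfl hjn')

theorem e_two_one (H : RR Q G (e 2) (e 0)) (H' : RR Q G (f 0) (e 1)) : RR Q G (e 2) (e 1) := by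
  have h1 := H'.swap (S.Qf 0 (by omega))
  exact h1.comp (κ := 1) one_ne_zero (S.Qe _ (by omega)) (S.ef _ _ (by omega) (by omega) (by omega)) H
    (S.Qe 2 (by omega)) (S.ee _ _ (by omega) (by omega)) (S.ef _ _ (by omega) (by omega) (by omega))
    (S.ee _ _ (by omega) (by omega)) (S.ef' _ (by omega)) (S.ee _ _ (by omega) (by omega))

include hy₁ hy₂

/-- The element of `e₀`. -/
theorem core1 {u τ : V ≃ₗ[F] V} (hu : EAt Q (e 0) (f 1) u) (huG : u ∈ G) (hτ : τ ∈ G) {ζ : F} (hζ0 : ζ ≠ 0)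
    (hζ : ∀ d : F, d ≠ 0 → ∃ k : ℕ, d = ζ ^ k) (Hτ : IsTau Q (e 0) (f 0) (e 1) (f 1) ζ τ) :
    RR Q G (e 0) y₁ ∧ RR Q G (e 0) y₂ ∧ (∀ j k, j + 1 ≤ k → k ≤ n → RR Q G (e j) (f k)) ∧
      (∀ j, 1 ≤ j → j ≤ n → RR Q G (e j) (e 0)) := by
  have h1 := step1 S hn hG ha A hu huG hτ hζ0 hζ Hτ
  have h2 := chain S hn hG ha A h1
  have h3 := chain_far S hn hG ha A h2
  have h4 := last_zero S hn hG ha A h2
  have h5 := f_zero_one S hn hG ha A h4
  have h6 := e_zero S hn hG ha A h3 h4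
  have h7 := e_two_one S hn hG ha A (h6 2 (by omega) hn) h5
  have h01 : RR Q G (e 0) (f 1) := h2 0 (by omega)
  have h02 : RR Q G (e 0) (f 2) := h3 0 2 (by omega) hn
  have hE2 : RR Q G (e 0) (e 2) := (h6 2 (by omega) hn).swap (S.Qe 2 hn)
  have hE1 : RR Q G (e 0) (e 1) := (h6 1 (by omega) (by omega)).swap (S.Qe 1 (by omega))
  obtain ⟨α, β, hα, hf0⟩ := A.f_zero
  obtain ⟨β', hy⟩ := A.y_two
  set v := α • f 1 - y₂ with hv
  have hw₀ : a (f 0) = v - β • e 1 := hf0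
  have hQw : Q (v - β • e 1) = 0 := by
    rw [← hw₀]
    rw [hG ha (f 0)]
    exact S.Qf 0 (by omega)
  have h8 : RR Q G (v - β • e 1) (e 2) := by
    obtain ⟨d, hd, h9⟩ := A.e_step 1 (by omega)
    exact h5.step hG ha (α := 1) one_ne_zero hd (by rw [hw₀, one_smul]) h9
  have h9 : RR Q G (e 2) (v - β • e 1) := h8.swap hQw
  have pe2v : polar Q (e 2) v = 0 := by
    rw [hv, polar_sub_right, polar_smul_right, S.ef _ _ hn (by omega) (by omega), polar_comm, (hy₂ 2 hn).1]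
    simp
  have pe2e1 : polar Q (e 2) (e 1) = 0 := S.ee _ _ hn (by omega)
  have h10 : RR Q G (e 2) v := by
    intro c
    have : c • v = c • (v - β • e 1) + (c * β) • e 1 := by module
    rw [this]
    refine (h9 c).add (h7 _) ?_ ?_
    · rw [polar_smul_right, polar_sub_right, pe2v, polar_smul_right, pe2e1]
      simp
    · rw [polar_smul_right, pe2e1, smul_zero]
  have pv0 : polar Q v (e 0) = 0 := by
    rw [hv, polar_sub_left, polar_smul_left, S.fe _ _ (by omega) (by omega) (by omega), (hy₂ 0 (by omega)).1]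
    simp
  have h11 : RR Q G (e 0) v := h10.spread hG (z := f 2) (S.Qe 0 (by omega)) (S.Qe 2 hn) (S.Qf 2 hn)
    (S.ee _ _ (by omega) hn) (S.ef _ _ (by omega) hn (by omega)) (S.ef' _ hn) pv0
    (by rw [polar_comm]; exact pe2v)
    (by
      rw [hv, polar_sub_left, polar_smul_left, S.ff _ _ (by omega) hn, (hy₂ 2 hn).2]
      simp) h02 hE2
  have p0f1 : polar Q (e 0) (f 1) = 0 := S.ef _ _ (by omega) (by omega) (by omega)
  have p0y2 : polar Q (e 0) y₂ = 0 := by rw [polar_comm]; exact (hy₂ 0 (by omega)).1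
  have p0v : polar Q (e 0) v = 0 := by rw [polar_comm]; exact pv0
  have h12 : RR Q G (e 0) y₂ := by
    intro c
    have : c • y₂ = (c * α) • f 1 + (-c) • v := by
      rw [hv]; module
    rw [this]
    refine (h01 _).add (h11 _) ?_ ?_
    · rw [polar_smul_right, p0f1, smul_zero]
    · rw [polar_smul_right, p0v, smul_zero]
  have h13 : RR Q G (e 1) y₁ := by
    obtain ⟨s₀, hs₀, he0⟩ := A.e_step 0 (by omega)
    intro c
    have h14 := (h12 (c / s₀)).conj hG ha
    rw [map_smul, he0, hy] at h14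
    have h15 := h14.of_center_smul hs₀
    have : c • y₁ = s₀ • (c / s₀) • (y₁ + β' • e 1) + (- (c * β')) • e 1 := by
      rw [smul_smul, mul_div_cancel₀ _ hs₀]
      module
    rw [this]
    refine h15.add (Mm.self _) ?_ ?_
    · simp only [polar_smul_right, polar_add_right, S.ee _ _ (show 1 ≤ n by omega) (show 1 ≤ n by omega)]
      rw [polar_comm, (hy₁ 1 (by omega)).1]
      simp
    · rw [polar_smul_right, S.ee _ _ (show 1 ≤ n by omega) (show 1 ≤ n by omega), smul_zero]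
  have h16 : RR Q G (e 0) y₁ := h13.spread hG (z := f 1) (S.Qe 0 (by omega)) (S.Qe 1 (by omega)) (S.Qf 1 (by omega))
    (S.ee _ _ (by omega) (by omega)) p0f1 (S.ef' _ (by omega)) (hy₁ 0 (by omega)).1 (hy₁ 1 (by omega)).1
    (hy₁ 1 (by omega)).2 h01 hE1
  exact ⟨h16, h12, h3, h6⟩

end core1


/-- The action of the Weyl element on the frame. -/
structure WAct (Q : QuadraticForm F V) (n : ℕ) (e f : ℕ → V) (w : V ≃ₗ[F] V) (y₁ y₂ : V) : Prop where
  e_step : ∀ i, i < n → ∃ c : F, c ≠ 0 ∧ w (e i) = c • e (i + 1)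
  f_step : ∀ i, i < n → ∃ c : F, c ≠ 0 ∧ w (f i) = c • f (i + 1)
  e_last : ∃ c : F, c ≠ 0 ∧ w (e n) = c • f 0
  f_last : ∃ c : F, c ≠ 0 ∧ w (f n) = c • e 0
  y1 : w y₁ = y₂
  y2 : w y₂ = y₁

section core2

variable {w : V ≃ₗ[F] V} (S : Fr Q n e f) (hn : 2 ≤ n) (hG : G ≤ isoGroup Q) (hw : w ∈ G) (W : WAct Q n e f w y₁ y₂)

include S hn hG hw W

theorem e_y (h1 : RR Q G (e 0) y₁) (h2 : RR Q G (e 0) y₂) : ∀ i, i ≤ n → RR Q G (e i) y₁ ∧ RR Q G (e i) y₂ := by
  intro i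
  induction i with
  | zero => exact fun _ => ⟨h1, h2⟩
  | succ i ih =>
    intro hi
    obtain ⟨c, hc, h3⟩ := W.e_step i (by omega)
    have h4 := ih (by omega)
    have e1 : w y₁ = (1 : F) • y₂ := by rw [W.y1, one_smul]
    have e2 : w y₂ = (1 : F) • y₁ := by rw [W.y2, one_smul]
    exact ⟨h4.2.step hG hw hc one_ne_zero h3 e2, h4.1.step hG hw hc one_ne_zero h3 e1⟩

theorem f_y (h : ∀ i, i ≤ n → RR Q G (e i) y₁ ∧ RR Q G (e i) y₂) : RR Q G (f 0) y₁ ∧ RR Q G (f 0) y₂ := by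
  obtain ⟨c, hc, h3⟩ := W.e_last
  have h4 := h n le_rfl
  have e1 : w y₁ = (1 : F) • y₂ := by rw [W.y1, one_smul]
  have e2 : w y₂ = (1 : F) • y₁ := by rw [W.y2, one_smul]
  exact ⟨h4.2.step hG hw hc one_ne_zero h3 e2, h4.1.step hG hw hc one_ne_zero h3 e1⟩

theorem e_e (h : ∀ j, 1 ≤ j → j ≤ n → RR Q G (e j) (e 0)) : ∀ k j, k < j → j ≤ n → RR Q G (e j) (e k) := by
  intro k
  induction k with
  | zero => exact fun j h1 h2 => h j h1 h2
  | succ k ih =>
    intro j hj hjn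
    obtain ⟨m, rfl⟩ : ∃ m, j = m + 1 := ⟨j - 1, by omega⟩
    obtain ⟨c, hc, h3⟩ := W.e_step m (by omega)
    obtain ⟨d, hd, h4⟩ := W.e_step k (by omega)
    exact (ih m (by omega) (by omega)).step hG hw hc hd h3 h4

theorem e_f (h : ∀ k j, k < j → j ≤ n → RR Q G (e j) (e k)) : ∀ k j, k < j → j ≤ n → RR Q G (e j) (f k) := by
  intro k
  induction k with
  | zero =>
    intro j hj hjn
    obtain ⟨m, rfl⟩ : ∃ m, j = m + 1 := ⟨j - 1, by omega⟩
    obtain ⟨c, hc, h3⟩ := W.e_step m (by omega)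
    obtain ⟨d, hd, h4⟩ := W.e_last
    have h5 := (h m n (by omega) le_rfl).swap (S.Qe n le_rfl)
    exact h5.step hG hw hc hd h3 h4
  | succ k ih =>
    intro j hj hjn
    obtain ⟨m, rfl⟩ : ∃ m, j = m + 1 := ⟨j - 1, by omega⟩
    obtain ⟨c, hc, h3⟩ := W.e_step m (by omega)
    obtain ⟨d, hd, h4⟩ := W.f_step k (by omega)
    exact (ih m (by omega) (by omega)).step hG hw hc hd h3 h4

theorem f_e (h : ∀ k j, k < j → j ≤ n → RR Q G (e j) (e k)) : ∀ j, 1 ≤ j → j ≤ n → RR Q G (f 0) (e j) := by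
  intro j hj hjn
  obtain ⟨m, rfl⟩ : ∃ m, j = m + 1 := ⟨j - 1, by omega⟩
  obtain ⟨c, hc, h3⟩ := W.e_last
  obtain ⟨d, hd, h4⟩ := W.e_step m (by omega)
  exact (h m n (by omega) le_rfl).step hG hw hc hd h3 h4

theorem f_f (h : ∀ k j, k < j → j ≤ n → RR Q G (e j) (f k)) : ∀ j, 1 ≤ j → j ≤ n → RR Q G (f 0) (f j) := by
  intro j hj hjn
  obtain ⟨m, rfl⟩ : ∃ m, j = m + 1 := ⟨j - 1, by omega⟩
  obtain ⟨c, hc, h3⟩ := W.e_last
  obtain ⟨d, hd, h4⟩ := W.f_step m (by omega)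
  exact (h m n (by omega) le_rfl).step hG hw hc hd h3 h4

end core2

section decomp

/-- Decomposition of a vector along the frame. -/
theorem decomp {x : V} (S : Fr Q n e f)
    (h1 : ∀ k, k ≤ n → ∀ b, polar Q x b = 0 →
      polar Q x (polar Q b (f k) • e k + polar Q b (e k) • f k) = 0 ∧ Mm Q G x (polar Q b (f k) • e k + polar Q b (e k) • f k))
    (h2 : ∀ y, Perp Q n e f y → polar Q x y = 0 → Mm Q G x y) :
    ∀ b, polar Q x b = 0 → Mm Q G x b := by
  have key : ∀ k, ∀ b, polar Q x b = 0 → (∀ j, k ≤ j → j ≤ n → polar Q b (e j) = 0 ∧ polar Q b (f j) = 0) → Mm Q G x b := by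
    intro k
    induction k with
    | zero => exact fun b hb hb' => h2 b (fun i hi => hb' i (by omega) hi) hb
    | succ k ih =>
      intro b hb hb'
      by_cases hk : k ≤ n
      · obtain ⟨h3, h4⟩ := h1 k hk b hb
        set v := polar Q b (f k) • e k + polar Q b (e k) • f k with hv
        have h5 : polar Q x (b - v) = 0 := by rw [polar_sub_right, hb, h3, sub_zero]
        have h6 : Mm Q G x (b - v) := by
          refine ih _ h5 (fun j hj hjn => ?_)
          by_cases hjk : j = k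
          · subst hjk
            rw [hv]
            simp only [polar_sub_left, polar_add_left, polar_smul_left, S.ee _ _ hk hk, S.ff _ _ hk hk, S.fe' _ hk, S.ef' _ hk,
              smul_eq_mul]
            simp
          · have h7 := hb' j (by omega) hjn
            rw [hv]
            simp only [polar_sub_left, polar_add_left, polar_smul_left, S.ee _ _ hk hjn, S.ff _ _ hk hjn,
              S.fe _ _ hk hjn (Ne.symm hjk), S.ef _ _ hk hjn (Ne.symm hjk), h7.1, h7.2, smul_eq_mul]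
            simp
        have : b = (b - v) + v := by abel
        rw [this]
        exact h6.add h4 h5 h3
      · exact ih b hb (fun j hj hjn => hb' j (by omega) hjn)
  intro b hb
  refine key (n + 1) b hb (fun j hj hjn => absurd hj (by omega))

end decomp

/-- All singular vectors are moved, by the nondegeneracy. -/
theorem hsing_aux (hQ : (polarBilin Q).Nondegenerate) {e₀ f₀ : V} (he : Q e₀ = 0) (hf : Q f₀ = 0) (hef : polar Q e₀ f₀ = 1) :
    ∀ v, Q v = 0 → v ≠ 0 → polar Q v f₀ ≠ 0 ∨ polar Q v e₀ ≠ 0 ∨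
      ∃ z ∈ {z : V | Q z = 0 ∧ polar Q z e₀ = 0 ∧ polar Q z f₀ = 0}, polar Q v z ≠ 0 := by
  intro v hv hv0
  by_contra hcon
  push Not at hcon
  obtain ⟨h1, h2, h3⟩ := hcon
  apply hv0
  apply hQ.1 v
  intro y
  show polar Q v y = 0
  by_contra hy
  set x := y - polar Q y f₀ • e₀ - polar Q y e₀ • f₀ with hx
  have hfe : polar Q f₀ e₀ = 1 := by rw [polar_comm]; exact hef
  have s1 := polar_self_of_singular he
  have s2 := polar_self_of_singular hf
  have s3 := polar_self_of_singular hv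
  have p1 : polar Q x e₀ = 0 := by
    rw [hx]
    simp only [polar_sub_left, polar_smul_left, s1, hfe, smul_eq_mul, mul_zero, mul_one, sub_zero, sub_self]
  have p2 : polar Q x f₀ = 0 := by
    rw [hx]
    simp only [polar_sub_left, polar_smul_left, s2, hef, smul_eq_mul, mul_zero, mul_one, sub_zero, sub_self]
  have p3 : polar Q v x = polar Q v y := by
    rw [hx]
    simp only [polar_sub_right, polar_smul_right, h1, h2, smul_eq_mul, mul_zero, sub_zero]
  set c := Q x / polar Q v x with hc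
  have p4 : polar Q v x ≠ 0 := by rw [p3]; exact hy
  have h5 := h3 (x - c • v) ⟨by
      rw [Q_sub, QuadraticMap.map_smul, hv, polar_smul_right, polar_comm, hc]
      simp only [smul_eq_mul, mul_zero, add_zero]
      field_simp
      ring, by
      rw [polar_sub_left, polar_smul_left, p1, h2]; simp, by
      rw [polar_sub_left, polar_smul_left, p2, h1]; simp⟩
  rw [polar_sub_right, polar_smul_right, s3] at h5
  simp only [smul_eq_mul, mul_zero, sub_zero] at h5
  exact p4 h5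

/-- The whole group from the two centres. -/
theorem eGroup_le_of_centres (hQ : (polarBilin Q).Nondegenerate) {e₀ f₀ e₁ f₁ : V} (H : HP Q e₀ f₀ e₁ f₁)
    (h1 : ∀ b, polar Q e₀ b = 0 → Mm Q G e₀ b) (h2 : ∀ b, polar Q f₀ b = 0 → Mm Q G f₀ b) : eGroup Q ≤ G := by
  have hS : ∀ z ∈ {z : V | Q z = 0 ∧ polar Q z e₀ = 0 ∧ polar Q z f₀ = 0}, Q z = 0 ∧ polar Q z e₀ = 0 ∧ polar Q z f₀ = 0 :=
    fun z hz => hz
  have he₂ : e₁ ∈ {z : V | Q z = 0 ∧ polar Q z e₀ = 0 ∧ polar Q z f₀ = 0} :=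
    ⟨H.Qe₂, by rw [polar_comm]; exact H.e₁e₂, by rw [polar_comm]; exact H.f₁e₂⟩
  have hf₂ : f₁ ∈ {z : V | Q z = 0 ∧ polar Q z e₀ = 0 ∧ polar Q z f₀ = 0} :=
    ⟨H.Qf₂, by rw [polar_comm]; exact H.e₁f₂, by rw [polar_comm]; exact H.f₁f₂⟩
  rw [eGroup_eq_X₀ H hS he₂ hf₂ (hsing_aux hQ H.Qe₁ H.Qf₁ H.e₁f₁), X₀, Subgroup.closure_le]
  rintro g ⟨b, hb | hb⟩
  · exact h1 b hb.ab g hb
  · exact h2 b hb.ab g hb


/-- A generator of the multiplicative group. -/
theorem exists_field_gen (F : Type*) [Field F] [Fintype F] : ∃ ζ : F, ζ ≠ 0 ∧ ∀ d : F, d ≠ 0 → ∃ k : ℕ, d = ζ ^ k := by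
  obtain ⟨x, hx⟩ := IsCyclic.exists_monoid_generator (α := Fˣ)
  refine ⟨x, x.ne_zero, fun d hd => ?_⟩
  obtain ⟨k, hk⟩ := hx (Units.mk0 d hd)
  refine ⟨k, ?_⟩
  have := congrArg Units.val hk
  simpa using this.symm

/-- An Eichler transformation has order dividing the size of the field. -/
theorem eAt_pow {x b : V} {u : V ≃ₗ[F] V} (hu : EAt Q x b u) (k : ℕ) : EAt Q x ((k : F) • b) (u ^ k) := by
  induction k with
  | zero => simpa using eAt_zero hu.Qa
  | succ k ih =>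
    rw [pow_succ]
    have := ih.mul hu
    convert this using 1
    push_cast
    module

theorem gens_mem [Fintype F] {e₀ f₀ e₁ f₁ : V} (H : HP Q e₀ f₀ e₁ f₁) {u τ : V ≃ₗ[F] V} (hu : EAt Q e₀ f₁ u) {ζ : F}
    (hζ0 : ζ ≠ 0) (Hτ : IsTau Q e₀ f₀ e₁ f₁ ζ τ) (hτ : τ ∈ isoGroup Q) (hG : τ * u ∈ G) : u ∈ G ∧ τ ∈ G := by
  have h1 : τ * u * τ⁻¹ = u := by
    have h2 := hu.conj hτ
    rw [Hτ.e0, Hτ.f1] at h2
    have h3 := h2.smul_center hζ0
    rw [smul_smul, mul_inv_cancel₀ hζ0, one_smul] at h3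
    exact h3.unique hu
  have hc : Commute τ u := mul_inv_eq_iff_eq_mul.1 h1
  have h3 := Fintype.one_lt_card (α := F)
  have h4 : τ ^ (Fintype.card F - 1) = 1 := by
    apply IsTau.eq_one H
    have := Hτ.pow (Fintype.card F - 1)
    rwa [FiniteField.pow_card_sub_one_eq_one ζ hζ0] at this
  have h5 : u ^ Fintype.card F = 1 := by
    have := eAt_pow hu (Fintype.card F)
    rw [FiniteField.cast_card_eq_zero, zero_smul] at this
    exact this.eq_one
  have h6 : u ^ (Fintype.card F - 1) = u⁻¹ := by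
    apply eq_inv_of_mul_eq_one_left
    rw [← pow_succ, Nat.sub_add_cancel (by omega), h5]
  have h7 : (τ * u) ^ (Fintype.card F - 1) = u⁻¹ := by
    rw [hc.mul_pow, h4, h6, one_mul]
  have h8 : u ∈ G := by
    have := G.inv_mem (G.pow_mem hG (Fintype.card F - 1))
    rwa [h7, inv_inv] at this
  refine ⟨h8, ?_⟩
  have : τ = τ * u * u⁻¹ := by group
  rw [this]
  exact G.mul_mem hG (G.inv_mem h8)

/-- **Two generation** of the group generated by Eichler transformations. -/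
theorem two_gen [Fintype F] (hQ : (polarBilin Q).Nondegenerate) (S : Fr Q n e f) (hn : 2 ≤ n) {y₀ y₁ : V}
    (hy₀ : Perp Q n e f y₀) (hq : Q y₀ ≠ 0) (hy₁ : Perp Q n e f y₁)
    (hspan : ∀ y, Perp Q n e f y → ∃ c d : F, y = c • y₁ + d • (y₁ - (polar Q y₁ y₀ * (Q y₀)⁻¹) • y₀)) :
    ∃ a b : V ≃ₗ[F] V, Subgroup.closure {a, b} = eGroup Q := by
  set y₂ := y₁ - (polar Q y₁ y₀ * (Q y₀)⁻¹) • y₀ with hy₂def
  have hy₂ : Perp Q n e f y₂ := by
    intro i hi
    rw [hy₂def, polar_sub_left, polar_sub_left, polar_smul_left, polar_smul_left, (hy₁ i hi).1, (hy₁ i hi).2,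
      (hy₀ i hi).1, (hy₀ i hi).2]
    simp
  obtain ⟨w, hwE, w1, w2, w3, w4⟩ := exists_w S hy₀ hq
  obtain ⟨ζ, hζ0, hζ⟩ := exists_field_gen F
  have H01 : HP Q (e 0) (f 0) (e 1) (f 1) := S.hp (by omega) (by omega) (by omega)
  obtain ⟨τ, hτE, Hτ⟩ := exists_tau H01 hζ0
  obtain ⟨t, ht⟩ := exists_eAt (Q := Q) (a := e 0) (b := y₁) (S.Qe 0 (by omega)) (by
    rw [polar_comm]; exact (hy₁ 0 (by omega)).1)
  obtain ⟨u, hu⟩ := exists_eAt (Q := Q) (a := e 0) (b := f 1) (S.Qe 0 (by omega)) (S.ef _ _ (by omega) (by omega) (by omega))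
  have hwy₁ : w y₁ = y₂ := w4 y₁ hy₁
  have hwy₂ : w y₂ = y₁ := by
    rw [w4 y₂ hy₂, hy₂def, polar_sub_left, polar_smul_left, polar_self_eq]
    simp only [smul_eq_mul]
    have e1 : polar Q y₁ y₀ * (Q y₀)⁻¹ * (2 * Q y₀) = 2 * polar Q y₁ y₀ := by
      field_simp
    rw [e1]
    have e2 : (polar Q y₁ y₀ - 2 * polar Q y₁ y₀) * (Q y₀)⁻¹ = - (polar Q y₁ y₀ * (Q y₀)⁻¹) := by ring
    rw [e2]
    module
  refine ⟨w * t, τ * u, ?_⟩
  set G := Subgroup.closure ({w * t, τ * u} : Set (V ≃ₗ[F] V)) with hGdef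
  have hGE : G ≤ eGroup Q := by
    rw [hGdef, Subgroup.closure_le]
    rintro g (rfl | rfl)
    · exact Subgroup.mul_mem _ hwE ht.mem_eGroup
    · exact Subgroup.mul_mem _ hτE hu.mem_eGroup
  have hG : G ≤ isoGroup Q := hGE.trans eGroup_le_iso
  have ha : w * t ∈ G := Subgroup.subset_closure (by simp)
  have hb : τ * u ∈ G := Subgroup.subset_closure (by simp)
  obtain ⟨huG, hτG⟩ := gens_mem H01 hu hζ0 Hτ (eGroup_le_iso hτE) hb
  have tfix : ∀ x, polar Q x (e 0) = 0 → polar Q x y₁ = 0 → t x = x := fun x h1 h2 => ht.fix h1 h2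
  have tfe : ∀ i, i ≤ n → t (e i) = e i := fun i hi =>
    tfix _ (S.ee _ _ hi (by omega)) (by rw [polar_comm]; exact (hy₁ i hi).1)
  have A : Act Q n e f (w * t) y₁ y₂ := by
    refine ⟨fun i hi => ?_, fun i hi1 hi => ?_, ?_, ?_, ?_, ?_⟩
    · obtain ⟨c, hc, h⟩ := (w1 i hi).1
      refine ⟨c, hc, ?_⟩
      show w (t (e i)) = _
      rw [tfe i (by omega), h]
    · obtain ⟨c, hc, h⟩ := (w1 i hi).2
      refine ⟨c, hc, ?_⟩
      show w (t (f i)) = _
      rw [tfix _ (S.fe _ _ (by omega) (by omega) (by omega)) (by rw [polar_comm]; exact (hy₁ i (by omega)).2), h]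
    · obtain ⟨c, hc, h⟩ := w2
      refine ⟨c, hc, ?_⟩
      show w (t (e n)) = _
      rw [tfe n le_rfl, h]
    · obtain ⟨c, hc, h⟩ := w3
      refine ⟨c, hc, ?_⟩
      show w (t (f n)) = _
      rw [tfix _ (S.fe _ _ le_rfl (by omega) (by omega)) (by rw [polar_comm]; exact (hy₁ n le_rfl).2), h]
    · obtain ⟨c, hc, h⟩ := (w1 0 (by omega)).1
      obtain ⟨d, hd, h'⟩ := (w1 0 (by omega)).2
      refine ⟨d, Q y₁ * c, hd, ?_⟩
      show w (t (f 0)) = _
      rw [ht.apply', S.fe' _ (by omega), polar_comm, (hy₁ 0 (by omega)).2]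
      simp only [zero_smul, add_zero, one_smul, mul_one, map_sub, map_smul, h, h', hwy₁, zero_add, smul_smul]
    · obtain ⟨c, hc, h⟩ := (w1 0 (by omega)).1
      refine ⟨polar Q y₂ y₁ * c, ?_⟩
      show w (t y₂) = _
      rw [ht.apply', (hy₂ 0 (by omega)).1]
      simp only [zero_smul, sub_zero, mul_zero, map_add, map_smul, h, hwy₂, smul_smul]
  obtain ⟨r1, r2, r3, r4⟩ := core1 S hn hG ha A hy₁ hy₂ hu huG hτG hζ0 hζ Hτ
  have htG : t ∈ G := r1.mm t ht
  have hwG : w ∈ G := by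
    have : w = w * t * t⁻¹ := by group
    rw [this]
    exact G.mul_mem ha (G.inv_mem htG)
  have W : WAct Q n e f w y₁ y₂ := ⟨fun i hi => (w1 i hi).1, fun i hi => (w1 i hi).2, w2, w3, hwy₁, hwy₂⟩
  have s1 := e_y S hn hG hwG W r1 r2
  obtain ⟨s2, s3⟩ := f_y S hn hG hwG W s1
  have s4 := e_e S hn hG hwG W r4
  have s5 := e_f S hn hG hwG W s4
  have s6 := f_e S hn hG hwG W s4
  have s7 := f_f S hn hG hwG W s5
  have hperp : ∀ {x : V}, RR Q G x y₁ → RR Q G x y₂ → (∀ y, Perp Q n e f y → polar Q x y₁ = 0 → polar Q x y₂ = 0 → Mm Q G x y) := by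
    intro x h1 h2 y hy p1 p2
    obtain ⟨c, d, rfl⟩ := hspan y hy
    refine (h1 c).add (h2 d) ?_ ?_
    · rw [polar_smul_right, p1, smul_zero]
    · rw [polar_smul_right, p2, smul_zero]
  have m1 : ∀ b, polar Q (e 0) b = 0 → Mm Q G (e 0) b := by
    refine decomp S (fun k hk b hb => ?_) (fun y hy _ => hperp r1 r2 y hy ?_ ?_)
    · by_cases hk0 : k = 0
      · subst hk0
        have : polar Q b (e 0) = 0 := by rw [polar_comm]; exact hb
        rw [this, zero_smul, add_zero]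
        exact ⟨by rw [polar_smul_right, S.ee _ _ (by omega) (by omega), smul_zero], Mm.self _⟩
      · have p1 : polar Q (e 0) (e k) = 0 := S.ee _ _ (by omega) hk
        have p2 : polar Q (e 0) (f k) = 0 := S.ef _ _ (by omega) hk (by omega)
        refine ⟨by rw [polar_add_right, polar_smul_right, polar_smul_right, p1, p2]; simp, ?_⟩
        refine Mm.add (((r4 k (by omega) hk).swap (S.Qe k hk)) _) (r3 0 k (by omega) hk _) ?_ ?_
        · rw [polar_smul_right, p1, smul_zero]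
        · rw [polar_smul_right, p2, smul_zero]
    · rw [polar_comm]; exact (hy₁ 0 (by omega)).1
    · rw [polar_comm]; exact (hy₂ 0 (by omega)).1
  have m2 : ∀ b, polar Q (f 0) b = 0 → Mm Q G (f 0) b := by
    refine decomp S (fun k hk b hb => ?_) (fun y hy _ => hperp s2 s3 y hy ?_ ?_)
    · by_cases hk0 : k = 0
      · subst hk0
        have : polar Q b (f 0) = 0 := by rw [polar_comm]; exact hb
        rw [this, zero_smul, zero_add]
        exact ⟨by rw [polar_smul_right, S.ff _ _ (by omega) (by omega), smul_zero], Mm.self _⟩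
      · have p1 : polar Q (f 0) (e k) = 0 := S.fe _ _ (by omega) hk (by omega)
        have p2 : polar Q (f 0) (f k) = 0 := S.ff _ _ (by omega) hk
        refine ⟨by rw [polar_add_right, polar_smul_right, polar_smul_right, p1, p2]; simp, ?_⟩
        refine Mm.add (s6 k (by omega) hk _) (s7 k (by omega) hk _) ?_ ?_
        · rw [polar_smul_right, p1, smul_zero]
        · rw [polar_smul_right, p2, smul_zero]
    · rw [polar_comm]; exact (hy₁ 0 (by omega)).2
    · rw [polar_comm]; exact (hy₂ 0 (by omega)).2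
  exact le_antisymm hGE (eGroup_le_of_centres hQ H01 m1 m2)

end Cfsg.Agent.Lib.POmegaTwo.Main
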