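import Mathlib
import Cfsg.Agent.Lib.POmegaTwo.Main
import Cfsg.Agent.Lib.Classical.QuadEichBridge

/-!
Two generation of the simple orthogonal groups in the standard coordinates.
-/

set_option autoImplicit false
set_option linter.unusedSectionVars false
set_option linter.unusedVariables false
set_option linter.unusedSimpArgs false

namespace Cfsg.Agent.Lib.POmegaTwo.Final

open Module QuadraticMap Cfsg.Agent.Lib.Witt.Quadratic Cfsg.Agent.Lib.Orth.Refl
open Cfsg.Agent.Lib.OrthRefl.Eichler Cfsg.Agent.Lib.Classical.QuadEichler Cfsg.Agent.Lib.ChevOrth.Hyp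
open Cfsg.Agent.Lib.POmegaTwo.Core Cfsg.Agent.Lib.POmegaTwo.Main
open Cfsg.Agent.Lib.Classical.QuadEichBridge Cfsg.Agent.Lib.Orth.Forms Cfsg.Agent.Lib.Orth.Gram

variable {F : Type*} [Field F] {ι : Type} [Fintype ι] [DecidableEq ι]

/-- Transfer to the projective group. -/
theorem pomega_two_gen [Fintype F] (Q : QuadraticForm F (ι → F)) (hQ : (polarBilin Q).Nondegenerate)
    (h5 : 5 ≤ Fintype.card ι) (H : ∃ a b : (ι → F) ≃ₗ[F] (ι → F), Subgroup.closure {a, b} = eGroup Q) :
    ∃ a b : Cfsg.POmega F ⇑Q, Subgroup.closure ({a, b} : Set (Cfsg.POmega F ⇑Q)) = ⊤ := by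
  obtain ⟨a, b, hab⟩ := H
  have ha : a ∈ eGroup Q := hab ▸ Subgroup.subset_closure (by simp)
  have hb : b ∈ eGroup Q := hab ▸ Subgroup.subset_closure (by simp)
  have h1 : Subgroup.closure ({⟨a, ha⟩, ⟨b, hb⟩} : Set (eGroup Q)) = ⊤ := by
    apply Subgroup.map_injective (eGroup Q).subtype_injective
    rw [MonoidHom.map_closure, Set.image_pair]
    show Subgroup.closure {a, b} = _
    rw [hab, ← MonoidHom.range_eq_map, Subgroup.range_subtype]
  set E := omegaEquiv Q hQ h5 with hE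
  have h2 := congrArg (Subgroup.map E.symm.toMonoidHom) h1
  rw [MonoidHom.map_closure, Set.image_pair, Subgroup.map_top_of_surjective _ E.symm.surjective] at h2
  have h3 := congrArg (Subgroup.map (QuotientGroup.mk' (Subgroup.center (Cfsg.Omega F ⇑Q)))) h2
  rw [MonoidHom.map_closure, Subgroup.map_top_of_surjective _ (QuotientGroup.mk'_surjective _), Set.image_pair] at h3
  exact ⟨_, _, h3⟩

/-- A hyperbolic family among the coordinate vectors. -/
structure Coord (Q : QuadraticForm F (ι → F)) (k : ℕ) (p p' : Fin k → ι) : Prop where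
  inj : Function.Injective p
  inj' : Function.Injective p'
  disj : ∀ i j, p i ≠ p' j
  Qp : ∀ i, Q (Pi.single (p i) 1) = 0
  Qp' : ∀ i, Q (Pi.single (p' i) 1) = 0
  pol : ∀ i v, polar Q (Pi.single (p i) 1) v = v (p' i)
  pol' : ∀ i v, polar Q (Pi.single (p' i) 1) v = v (p i)

/-- Extension of a family of coordinate vectors to all natural numbers. -/
noncomputable def fam (F : Type*) [Field F] {ι : Type} [DecidableEq ι] {k : ℕ} (p : Fin k → ι) (i : ℕ) : ι → F :=
  if h : i < k then Pi.single (p ⟨i, h⟩) 1 else 0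

theorem fam_of_lt {k : ℕ} (p : Fin k → ι) {i : ℕ} (h : i < k) : fam F p i = Pi.single (p ⟨i, h⟩) 1 := by
  simp [fam, h]

variable {Q : QuadraticForm F (ι → F)} {n : ℕ} {p p' : Fin (n + 1) → ι}

theorem Coord.fr (C : Coord Q (n + 1) p p') : Fr Q n (fam F p) (fam F p') := by
  have h1 : ∀ i, i ≤ n → i < n + 1 := fun i hi => by omega
  refine ⟨fun i hi => ?_, fun i hi => ?_, fun i j hi hj => ?_, fun i j hi hj => ?_, fun i j hi hj hij => ?_, fun i hi => ?_⟩
  · rw [fam_of_lt p (h1 i hi)]; exact C.Qp _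
  · rw [fam_of_lt p' (h1 i hi)]; exact C.Qp' _
  · rw [fam_of_lt p (h1 i hi), fam_of_lt p (h1 j hj), C.pol, Pi.single_apply, if_neg (C.disj _ _).symm]
  · rw [fam_of_lt p' (h1 i hi), fam_of_lt p' (h1 j hj), C.pol', Pi.single_apply, if_neg (C.disj _ _)]
  · rw [fam_of_lt p (h1 i hi), fam_of_lt p' (h1 j hj), C.pol, Pi.single_apply, if_neg]
    intro h
    have := C.inj' h
    simp only [Fin.mk.injEq] at this
    exact hij this
  · rw [fam_of_lt p (h1 i hi), fam_of_lt p' (h1 i hi), C.pol, Pi.single_apply, if_pos rfl]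

theorem Coord.perp_iff (C : Coord Q (n + 1) p p') {y : ι → F} :
    Perp Q n (fam F p) (fam F p') y ↔ ∀ i, y (p i) = 0 ∧ y (p' i) = 0 := by
  constructor
  · intro h i
    have h2 := h i.1 (by omega)
    rw [fam_of_lt p i.2, fam_of_lt p' i.2, polar_comm, C.pol, polar_comm, C.pol'] at h2
    exact ⟨h2.2, h2.1⟩
  · intro h i hi
    have hi' : i < n + 1 := by omega
    rw [fam_of_lt p hi', fam_of_lt p' hi', polar_comm, C.pol, polar_comm, C.pol']
    exact ⟨(h _).2, (h _).1⟩

/-- The frame version, in coordinates. -/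
theorem two_gen_coord [Fintype F] (hQ : (polarBilin Q).Nondegenerate) (h5 : 5 ≤ Fintype.card ι)
    (C : Coord Q (n + 1) p p') (hn : 2 ≤ n) {y₀ y₁ : ι → F} (hy₀ : ∀ i, y₀ (p i) = 0 ∧ y₀ (p' i) = 0) (hq : Q y₀ ≠ 0)
    (hy₁ : ∀ i, y₁ (p i) = 0 ∧ y₁ (p' i) = 0)
    (hspan : ∀ y : ι → F, (∀ i, y (p i) = 0 ∧ y (p' i) = 0) →
      ∃ c d : F, y = c • y₁ + d • (y₁ - (polar Q y₁ y₀ * (Q y₀)⁻¹) • y₀)) :
    ∃ a b : Cfsg.POmega F ⇑Q, Subgroup.closure ({a, b} : Set (Cfsg.POmega F ⇑Q)) = ⊤ := by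
  refine pomega_two_gen Q hQ h5 ?_
  exact two_gen hQ C.fr hn (C.perp_iff.2 hy₀) hq (C.perp_iff.2 hy₁) (fun y hy => hspan y (C.perp_iff.1 hy))

section plus

theorem plus_polar_inl (m : ℕ) (i : Fin m) (v : Fin m ⊕ Fin m → F) :
    polar (plusForm m F) (Pi.single (Sum.inl i) 1) v = v (Sum.inr i) := by
  show polar (quadFormPlus m F) _ _ = _
  rw [polar_quadFormPlus, single_one_dotProduct]
  simp [Matrix.mulVec, dotProduct, hypMat, Matrix.fromBlocks, Matrix.one_apply]

theorem plus_polar_inr (m : ℕ) (i : Fin m) (v : Fin m ⊕ Fin m → F) :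
    polar (plusForm m F) (Pi.single (Sum.inr i) 1) v = v (Sum.inl i) := by
  show polar (quadFormPlus m F) _ _ = _
  rw [polar_quadFormPlus, single_one_dotProduct]
  simp [Matrix.mulVec, dotProduct, hypMat, Matrix.fromBlocks, Matrix.one_apply]

theorem plus_Q_inl (m : ℕ) (i : Fin m) : plusForm m F (Pi.single (Sum.inl i) 1) = 0 := by
  show quadFormPlus m F _ = 0
  simp [quadFormPlus]

theorem plus_Q_inr (m : ℕ) (i : Fin m) : plusForm m F (Pi.single (Sum.inr i) 1) = 0 := by
  show quadFormPlus m F _ = 0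
  simp [quadFormPlus]

end plus


/-- `PΩ⁺` is generated by two elements. -/
theorem plus_two_gen [Fintype F] (n : ℕ) (hn : 2 ≤ n) :
    ∃ a b : Cfsg.POmega F (Cfsg.quadFormPlus (n + 2) F),
      Subgroup.closure ({a, b} : Set (Cfsg.POmega F (Cfsg.quadFormPlus (n + 2) F))) = ⊤ := by
  have C : Coord (plusForm (n + 2) F) (n + 1) (fun i => Sum.inl i.castSucc) (fun i => Sum.inr i.castSucc) := by
    refine ⟨fun i j h => ?_, fun i j h => ?_, fun i j => by simp, fun i => plus_Q_inl _ _, fun i => plus_Q_inr _ _,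
      fun i v => plus_polar_inl _ _ _, fun i v => plus_polar_inr _ _ _⟩
    · simpa using h
    · simpa using h
  set z : Fin (n + 2) ⊕ Fin (n + 2) → F := Pi.single (Sum.inl (Fin.last (n + 1))) 1 with hz
  set z' : Fin (n + 2) ⊕ Fin (n + 2) → F := Pi.single (Sum.inr (Fin.last (n + 1))) 1 with hz'
  have e1 : polar (plusForm (n + 2) F) z (z - z') = -1 := by
    rw [hz, plus_polar_inl]
    simp [hz, hz']
  have e2 : plusForm (n + 2) F (z - z') = -1 := by
    rw [Q_sub, hz, hz', plus_Q_inl, plus_Q_inr, plus_polar_inl]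
    simp
  refine two_gen_coord (plusForm_nondeg (n + 2)) (by simp; omega) C hn (y₀ := z - z') (y₁ := z) (fun i => ?_) ?_
    (fun i => ?_) (fun y hy => ?_)
  · have h1 : i.castSucc ≠ Fin.last (n + 1) := i.castSucc_lt_last.ne
    simp [hz, hz', h1]
  · rw [e2]; simp
  · simp [hz]
  · refine ⟨y (Sum.inl (Fin.last _)), y (Sum.inr (Fin.last _)), ?_⟩
    rw [e1, e2]
    have h3 : z - ((-1 : F) * (-1 : F)⁻¹) • (z - z') = z' := by
      simp
    rw [h3]
    ext j
    rcases j with j | j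
    · induction j using Fin.lastCases with
      | last => simp [hz, hz']
      | cast i => simpa [hz, hz', i.castSucc_lt_last.ne] using (hy i).1
    · induction j using Fin.lastCases with
      | last => simp [hz, hz']
      | cast i => simpa [hz, hz', i.castSucc_lt_last.ne] using (hy i).2

section odd

theorem odd_polar (m : ℕ) (u v : Unit ⊕ (Fin m ⊕ Fin m) → F) :
    polar (oddForm m F) u v = u ⬝ᵥ (oddMat m F).mulVec v := polar_quadFormOdd m u v

theorem odd_polar_inl (m : ℕ) (i : Fin m) (v : Unit ⊕ (Fin m ⊕ Fin m) → F) :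
    polar (oddForm m F) (Pi.single (Sum.inr (Sum.inl i)) 1) v = v (Sum.inr (Sum.inr i)) := by
  rw [odd_polar, single_one_dotProduct]
  simp [Matrix.mulVec, dotProduct, hypMat, oddMat, Matrix.fromBlocks, Matrix.one_apply]

theorem odd_polar_inr (m : ℕ) (i : Fin m) (v : Unit ⊕ (Fin m ⊕ Fin m) → F) :
    polar (oddForm m F) (Pi.single (Sum.inr (Sum.inr i)) 1) v = v (Sum.inr (Sum.inl i)) := by
  rw [odd_polar, single_one_dotProduct]
  simp [Matrix.mulVec, dotProduct, hypMat, oddMat, Matrix.fromBlocks, Matrix.one_apply]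

/-- `PΩ` in odd dimension is generated by two elements. -/
theorem odd_two_gen [Fintype F] (h2 : (2 : F) ≠ 0) (n : ℕ) (hn : 2 ≤ n) :
    ∃ a b : Cfsg.POmega F (Cfsg.quadFormOdd (n + 1) F),
      Subgroup.closure ({a, b} : Set (Cfsg.POmega F (Cfsg.quadFormOdd (n + 1) F))) = ⊤ := by
  have C : Coord (oddForm (n + 1) F) (n + 1) (fun i => Sum.inr (Sum.inl i)) (fun i => Sum.inr (Sum.inr i)) := by
    refine ⟨fun i j h => ?_, fun i j h => ?_, fun i j => by simp, fun i => ?_, fun i => ?_,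
      fun i v => odd_polar_inl _ _ _, fun i v => odd_polar_inr _ _ _⟩
    · simpa using h
    · simpa using h
    · show quadFormOdd (n + 1) F _ = 0
      simp [Cfsg.quadFormOdd]
    · show quadFormOdd (n + 1) F _ = 0
      simp [Cfsg.quadFormOdd]
  set x : Unit ⊕ (Fin (n + 1) ⊕ Fin (n + 1)) → F := Pi.single (Sum.inl ()) 1 with hx
  have e2 : oddForm (n + 1) F x = 1 := by
    show quadFormOdd (n + 1) F _ = 1
    simp [Cfsg.quadFormOdd, hx]
  refine two_gen_coord (oddForm_nondeg (n + 1) h2) (by simp; omega) C hn (y₀ := x) (y₁ := x) (fun i => ?_) ?_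
    (fun i => ?_) (fun y hy => ?_)
  · simp [hx]
  · rw [e2]; simp
  · simp [hx]
  · refine ⟨y (Sum.inl ()), 0, ?_⟩
    rw [zero_smul, add_zero]
    ext j
    rcases j with j | j | j
    · simp [hx]
    · simpa [hx] using (hy j).1
    · simpa [hx] using (hy j).2

end odd

section minus

variable {a b : F}

theorem minus_polar (k : ℕ) (u v : (Fin k ⊕ Fin k) ⊕ Fin 2 → F) :
    polar (minusForm k F a b) u v = u ⬝ᵥ (minusMat k a b).mulVec v := polar_quadFormMinus k a b u v

theorem minus_polar_inl (k : ℕ) (i : Fin k) (v : (Fin k ⊕ Fin k) ⊕ Fin 2 → F) :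
    polar (minusForm k F a b) (Pi.single (Sum.inl (Sum.inl i)) 1) v = v (Sum.inl (Sum.inr i)) := by
  rw [minus_polar, single_one_dotProduct]
  simp [Matrix.mulVec, dotProduct, hypMat, minusMat, Matrix.fromBlocks, Matrix.one_apply]

theorem minus_polar_inr (k : ℕ) (i : Fin k) (v : (Fin k ⊕ Fin k) ⊕ Fin 2 → F) :
    polar (minusForm k F a b) (Pi.single (Sum.inl (Sum.inr i)) 1) v = v (Sum.inl (Sum.inl i)) := by
  rw [minus_polar, single_one_dotProduct]
  simp [Matrix.mulVec, dotProduct, hypMat, minusMat, Matrix.fromBlocks, Matrix.one_apply]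

theorem minus_polar_z (k : ℕ) (v : (Fin k ⊕ Fin k) ⊕ Fin 2 → F) :
    polar (minusForm k F a b) v (Pi.single (Sum.inr 0) 1) = 2 * v (Sum.inr 0) + a * v (Sum.inr 1) := by
  rw [polar_comm, minus_polar, single_one_dotProduct]
  simp [Matrix.mulVec, dotProduct, hypMat, minusMat, Matrix.fromBlocks, Matrix.one_apply, Fin.sum_univ_two]

/-- `PΩ⁻` is generated by two elements. -/
theorem minus_two_gen [Fintype F] (n : ℕ) (hn : 2 ≤ n)
    (hab : ∀ z₁ z₂ : F, z₁ ^ 2 + a * z₁ * z₂ + b * z₂ ^ 2 = 0 → z₁ = 0 ∧ z₂ = 0) :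
    ∃ g h : Cfsg.POmega F (Cfsg.quadFormMinus (n + 1) F a b),
      Subgroup.closure ({g, h} : Set (Cfsg.POmega F (Cfsg.quadFormMinus (n + 1) F a b))) = ⊤ := by
  have C : Coord (minusForm (n + 1) F a b) (n + 1) (fun i => Sum.inl (Sum.inl i)) (fun i => Sum.inl (Sum.inr i)) := by
    refine ⟨fun i j h => ?_, fun i j h => ?_, fun i j => by simp, fun i => ?_, fun i => ?_,
      fun i v => minus_polar_inl _ _ _, fun i v => minus_polar_inr _ _ _⟩
    · simpa using h
    · simpa using h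
    · show quadFormMinus (n + 1) F a b _ = 0
      simp [Cfsg.quadFormMinus]
    · show quadFormMinus (n + 1) F a b _ = 0
      simp [Cfsg.quadFormMinus]
  set z₁ : (Fin (n + 1) ⊕ Fin (n + 1)) ⊕ Fin 2 → F := Pi.single (Sum.inr 0) 1 with hz₁
  set z₂ : (Fin (n + 1) ⊕ Fin (n + 1)) ⊕ Fin 2 → F := Pi.single (Sum.inr 1) 1 with hz₂
  have e2 : minusForm (n + 1) F a b z₁ = 1 := by
    show quadFormMinus (n + 1) F a b _ = 1
    simp [Cfsg.quadFormMinus, hz₁]
  -- choice of `s`
  have hs : ∃ s : F, a + 2 * s ≠ 0 := by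
    by_cases ha : a = 0
    · refine ⟨1, ?_⟩
      subst ha
      have h4 := disc_ne_zero_of_anisotropic hab
      intro h
      apply h4
      have h' : (2 : F) = 0 := by simpa using h
      have : (4 : F) = 2 * 2 := by norm_num
      rw [this, h']
      simp
    · exact ⟨0, by simpa using ha⟩
  obtain ⟨s, hs⟩ := hs
  have hpol : polar (minusForm (n + 1) F a b) (z₂ + s • z₁) z₁ = a + 2 * s := by
    rw [hz₁, minus_polar_z]
    simp [hz₂]
    ring
  refine two_gen_coord (minusForm_nondeg (n + 1) hab) (by simp; omega) C hn (y₀ := z₁) (y₁ := z₂ + s • z₁) (fun i => ?_) ?_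
    (fun i => ?_) (fun y hy => ?_)
  · simp [hz₁]
  · rw [e2]; simp
  · simp [hz₁, hz₂]
  · rw [hpol, e2, inv_one, mul_one]
    set α := y (Sum.inr 0) with hα
    set β := y (Sum.inr 1) with hβ
    obtain ⟨d, hd⟩ : ∃ d : F, d * (a + 2 * s) = β * s - α := ⟨_, div_mul_cancel₀ _ hs⟩
    refine ⟨β - d, d, ?_⟩
    ext j
    rcases j with (j | j) | j
    · simpa [hz₁, hz₂] using (hy j).1
    · simpa [hz₁, hz₂] using (hy j).2
    · fin_cases j
      · simp [hz₁, hz₂, ← hα]
        linear_combination hd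
      · simp [hz₁, hz₂, ← hβ]

end minus

end Cfsg.Agent.Lib.POmegaTwo.Final
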